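import Mathlib
import Cfsg.Agent.SPOR.LeechRep

/-!
The rank three action of the second Conway group on 2300 points: the pairs `{w, u - w}` (`u = leechU`) of the 4600
minimal vectors `w` with `(w, u) = 16`.
-/

set_option autoImplicit false

namespace CL.Co2U

open Cfsg Cfsg.Spor CL.Leech MulAction

theorem r3_abs {G : Type*} [Group G] [Finite G] {H : Subgroup G} (g : Fin 3 → G) (F : G → ℤ) (hi : H.index = 2300)
    (h0 : g 0 = 1) (hF : ∀ h ∈ H, ∀ k ∈ H, ∀ a, F (h * a * k) = F a) (hd : ∀ i j, F (g i) = F (g j) → i = j)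
    (hn : ∀ i, ![1, 891, 1408] i ≤ (orbit H (g i : G ⧸ H)).ncard) :
    IsCoatom H ∧ ∀ i, (orbit H (g i : G ⧸ H)).ncard = ![1, 891, 1408] i := by
  classical
  have dj : ∀ i j, i ≠ j → Disjoint (orbit H (g i : G ⧸ H)) (orbit H (g j : G ⧸ H)) := fun i j n => by
    refine (orbit.eq_or_disjoint _ _).resolve_left fun e => n (hd _ _ ?_)
    obtain ⟨h, e⟩ : (g i : G ⧸ H) ∈ orbit H (g j : G ⧸ H) := e ▸ mem_orbit_self _
    rw [← hF _ h.2 _ (QuotientGroup.eq.1 e) (g j)]
    exact congrArg F (mul_inv_cancel_left _ _).symm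
  obtain ⟨t1, t2⟩ := tight Set.finite_univ _ _ (fun _ => Set.subset_univ _) dj hn (by
    rw [Set.ncard_univ, ← Subgroup.index, hi]; decide)
  refine ⟨⟨fun e => by simp [e] at hi, fun K hK => ?_⟩, t2⟩
  have c : ∀ i, ∀ x ∈ orbit H (g i : G ⧸ H), orbit K x = orbit K (g i : G ⧸ H) :=
    fun i _ ⟨h, e⟩ => e ▸ orbit_smul (⟨h.1, hK.le h.2⟩ : K) (g i : G ⧸ H)
  have e := ncard_eq_sum (T := orbit K (g 0 : G ⧸ H)) _ (fun _ => Set.toFinite _) dj
    (fun i => orbit K (g i : G ⧸ H) = orbit K (g 0 : G ⧸ H))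
    (fun x a => let ⟨i, b⟩ := t1 x trivial; ⟨i, (c i x b).symm.trans (orbit_eq_iff.2 a), b⟩)
    fun i a x b => orbit_eq_iff.1 ((c i x b).trans a)
  have r : (orbit K (g 0 : G ⧸ H)).ncard = H.relIndex K := by
    rw [← index_stabilizer, h0]
    exact congrArg Subgroup.index (Subgroup.ext fun k => SetLike.ext_iff.1 (stabilizer_quotient H) k.1)
  have m := Subgroup.relIndex_mul_index hK.le
  have n : H.relIndex K ≠ 1 := fun e => hK.not_ge (Subgroup.relIndex_eq_one.1 e)
  simp only [r, Fin.sum_univ_three, t2, if_true] at e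
  rw [← Subgroup.index_eq_one]
  rw [hi] at m
  generalize H.relIndex K = c at e m n
  split_ifs at e <;> simp at e <;> subst e <;> omega

theorem r3_le {G : Type*} [Group G] [Finite G] {H K : Subgroup G} {q : G ⧸ H} {n : ℕ} (h : H ⊓ stabilizer G q ≤ K)
    (hn : n * Nat.card K ≤ Nat.card H) : n ≤ (orbit H q).ncard := by
  have a := (stabilizer H q).index_mul_card
  have b : Nat.card (stabilizer H q) ≤ Nat.card K := by
    rw [← Subgroup.card_map_of_injective H.subtype_injective]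
    exact Subgroup.card_le_of_le (le_trans (by rintro _ ⟨x, c, rfl⟩; exact ⟨x.2, c⟩) h)
  rw [index_stabilizer] at a
  exact Nat.le_of_mul_le_mul_right (hn.trans (a ▸ Nat.mul_le_mul_left _ b)) Nat.card_pos

/-- the stabiliser of the pair `{x, u - x}` -/
def BB (x : leechLattice) : Subgroup Co0 where
  carrier := {g | g • leechU = leechU ∧ (g • x = x ∨ g • x = leechU - x)}
  one_mem' := ⟨one_smul _ _, .inl (one_smul _ _)⟩
  mul_mem' := by
    rintro a b ⟨h, c⟩ ⟨k, d⟩
    refine ⟨by rw [mul_smul, k, h], ?_⟩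
    rcases c with c | c <;> rcases d with d | d <;> simp [mul_smul, smul_sub, *]
  inv_mem' := by
    rintro a ⟨h, c⟩
    refine ⟨inv_smul_eq_iff.2 h.symm, c.imp (fun c => inv_smul_eq_iff.2 c.symm) fun c => inv_smul_eq_iff.2 ?_⟩
    rw [smul_sub, h, c, sub_sub_cancel]

theorem r3_two {K : Subgroup Co0} {x : leechLattice} (h : K ≤ BB x) :
    Nat.card K ≤ 2 * Nat.card ↥(K ⊓ stabilizer Co0 x) := by
  rw [card_eq_orbit_mul K x]
  refine Nat.mul_le_mul_right _ ((Set.ncard_le_ncard (t := {x, leechU - x}) ?_).trans (Set.ncard_insert_le _ _ |>.trans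
    (by simp)))
  rintro _ ⟨g, rfl⟩
  exact (h g.2).2

theorem card_BB : Nat.card (BB X0) = 18393661440 := by
  have a := card_stab_pair sqNorm_U (w := X0) (by decide +kernel)
  obtain ⟨s, b, c⟩ := stabU_trans (x := X0) (y := leechU - X0) (by decide +kernel) (by decide +kernel) (by decide +kernel)
  have d : orbit (BB X0) X0 = {X0, leechU - X0} := Set.Subset.antisymm (by rintro _ ⟨g, rfl⟩; exact g.2.2)
    (by rintro _ (rfl | rfl); exacts [mem_orbit_self _, ⟨⟨s, b, .inr c⟩, c⟩])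
  rw [show dotInt _ _ = 16 by decide +kernel, censusN_16] at a
  rw [card_eq_orbit_mul _ X0, d, Set.ncard_pair (by decide +kernel), show BB X0 ⊓ stabilizer Co0 X0 =
    stabilizer Co0 leechU ⊓ stabilizer Co0 X0 from Subgroup.ext fun g =>
      ⟨fun h => ⟨h.1.1, h.2⟩, fun h => ⟨⟨h.1, .inl h.2⟩, h.2⟩⟩]
  omega

theorem card_B1 : Nat.card ↥(BB X0 ⊓ BB (X0 - leechU')) ≤ 20643840 := by
  have a := card_stab_pair sqNorm_U sqNorm_U'
  have b := card_eq_orbit_mul NV leechU'
  have c := card_eq_orbit_mul NV (nv 0)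
  have d : Nat.card ↥(NV ⊓ stabilizer Co0 leechU') ≤ _ :=
    Subgroup.card_le_of_le (inf_le_inf_right (stabilizer Co0 leechU') (inf_le_right : NV ≤ _))
  have e := r3_two (inf_le_left : BB X0 ⊓ BB (X0 - leechU') ≤ _)
  have f : BB X0 ⊓ BB (X0 - leechU') ⊓ stabilizer Co0 X0 ≤ NV ⊓ stabilizer Co0 (nv 0) := fun g ⟨⟨_, h, k⟩, l⟩ => by
    refine ⟨stab_U_U'_le ⟨h, ?_⟩, l⟩
    have := dot_smul_of_fix l (X0 - leechU')
    rcases k with k | k
    · rwa [smul_sub, mem_stabilizer_iff.1 l, sub_right_inj] at k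
    · exact absurd (k ▸ this) (by decide +kernel)
  replace f := Subgroup.card_le_of_le f
  rw [show dotInt _ _ = 0 by decide +kernel, censusN_0] at a
  rw [orbit_NV_U', Set.ncard_pair (by decide +kernel)] at b
  rw [nv_tight.2, show nvN 0 = 88 from rfl] at c
  omega

theorem card_B2 {g : Co0} (h : g • (leechU - X0) = leechU) (k : g • leechU = X0) :
    Nat.card ↥(BB X0 ⊓ BB (g • (leechU - W0))) ≤ 13063680 := by
  have a := r3_two (inf_le_left : BB X0 ⊓ BB (g • (leechU - W0)) ≤ _)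
  have b := r3_two (inf_le_left.trans inf_le_right : BB X0 ⊓ BB (g • (leechU - W0)) ⊓ stabilizer Co0 X0 ≤ _)
  have c := (((conj_stab g (leechU - X0)).inf (conj_stab g leechU)).inf (conj_stab g (leechU - W0))).card
  have d : stabilizer Co0 (leechU - X0) ⊓ stabilizer Co0 leechU ⊓ stabilizer Co0 (leechU - W0) ≤ GU43 :=
    fun s ⟨⟨x, y⟩, z⟩ => by
      change s • _ = _ at x y z
      rw [smul_sub, y, sub_right_inj] at x z
      exact ⟨⟨z, y⟩, x⟩
  have e := Subgroup.card_le_of_le (show BB X0 ⊓ BB (g • (leechU - W0)) ⊓ stabilizer Co0 X0 ⊓ stabilizer Co0 _ ≤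
    stabilizer Co0 leechU ⊓ stabilizer Co0 X0 ⊓ stabilizer Co0 (g • (leechU - W0)) from
      fun s ⟨⟨x, y⟩, z⟩ => ⟨⟨x.1.1, y⟩, z⟩)
  replace d := (Subgroup.card_le_of_le d).trans_eq card_GU43
  rw [h, k] at c
  omega

theorem co2_rank3 : ∃ H : Subgroup Cfsg.Spor.Co2, IsCoatom H ∧ H.index = 2300 ∧
    ∃ q₁ q₂ : Cfsg.Spor.Co2 ⧸ H, (MulAction.orbit H q₁).ncard = 891 ∧
      (MulAction.orbit H q₂).ncard = 1408 := by
  have : Finite Co2 := Nat.finite_of_card_ne_zero (by rw [card_Co2]; decide)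
  let φ : Co2 →* Co0 := (stabilizer Co0 leechU).subtype.comp eqCo2.toMonoidHom
  have hU : ∀ g, φ g • leechU = leechU := fun g => (eqCo2 g).2
  have sj : ∀ g : Co0, g • leechU = leechU → ∃ a, φ a = g := fun g h =>
    ⟨eqCo2.symm ⟨g, h⟩, congrArg Subtype.val (eqCo2.apply_symm_apply _)⟩
  have cd : ∀ {x} {K : Subgroup Co0}, K ≤ BB x → Nat.card (K.comap φ) = Nat.card K := fun h => by
    rw [← Subgroup.card_map_of_injective (f := φ) (Subtype.val_injective.comp eqCo2.injective),
      Subgroup.map_comap_eq_self fun g c => sj g (h c).1]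
  have hc := (cd le_rfl).trans card_BB
  have hi := ((BB X0).comap φ).index_mul_card
  have le : ∀ (a : Co2) n, n * Nat.card ↥(BB X0 ⊓ BB (φ a • X0)) ≤ 18393661440 →
      n ≤ (orbit ((BB X0).comap φ) (a : Co2 ⧸ (BB X0).comap φ)).ncard := fun a n h =>
    r3_le (K := (BB X0 ⊓ BB (φ a • X0)).comap φ) (fun g ⟨b, c⟩ => ⟨b, hU g, by
      have := (inv_mem (QuotientGroup.eq.1 c) : φ _ ∈ BB X0).2
      simp only [smul_eq_mul, mul_inv_rev, inv_inv, map_mul, map_inv, mul_smul, inv_smul_eq_iff, smul_sub, hU] at this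
      exact this⟩) (by rwa [cd inf_le_left, hc])
  obtain ⟨s, s1, s2⟩ := stabU_trans (x := X0) (y := X0 - leechU') (by decide +kernel) (by decide +kernel)
    (by decide +kernel)
  obtain ⟨g, g1, g2⟩ := pair_trans (v := leechU - X0) (w := leechU) (v' := leechU) (w' := X0) (by decide +kernel)
    sqNorm_U sqNorm_U (by decide +kernel) (by decide +kernel)
  obtain ⟨t, t1, t2⟩ := pair_trans (v := leechU) (w := X0) (v' := g • (leechU - X0)) (w' := g • (leechU - W0)) sqNorm_U
    (by decide +kernel) (by rw [g1]; exact sqNorm_U) ((sqNorm_smul _ _).trans (by decide +kernel))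
    (by rw [dot_smul]; decide +kernel)
  obtain ⟨s, rfl⟩ := sj s s1
  obtain ⟨t, rfl⟩ := sj t (t1.trans g1)
  have k1 : ∀ h ∈ BB X0, ∀ x y : leechLattice, dotInt leechU.1 y.1 = 16 → h • x = y → dotInt X0.1 y.1 = dotInt X0.1 x.1 ∨
      dotInt X0.1 y.1 = 16 - dotInt X0.1 x.1 := fun h ⟨_, b⟩ x y c e => by
    have := dot_smul h X0 x
    rw [e] at this
    rcases b with b | b <;> rw [b] at this
    · exact .inl this
    · rw [AddSubgroup.coe_sub, dot_sub_left] at this
      omega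
  rw [hc, card_Co2] at hi
  obtain ⟨r1, r2⟩ := r3_abs (H := (BB X0).comap φ) ![1, s, t]
    (fun a => dotInt X0.1 (φ a • X0).1 * (16 - dotInt X0.1 (φ a • X0).1)) (by omega) rfl (fun h a k b c => by
      have e := k1 _ a (φ c • φ k • X0) (φ (h * c * k) • X0) ((dot_smul_of_fix (hU _) _).trans (by decide +kernel))
        (by simp only [map_mul, mul_smul])
      have : dotInt X0.1 leechU.1 = 16 := by decide +kernel
      rcases b.2 with b | b <;> rw [b] at e
      · rcases e with e | e <;> simp only [e] <;> ring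
      · rw [smul_sub, hU, AddSubgroup.coe_sub, dot_sub_right, this] at e
        rcases e with e | e <;> simp only [e] <;> ring)
    (by
      have a : dotInt X0.1 (φ 1 • X0).1 = 32 := by rw [map_one, one_smul]; decide +kernel
      have b : dotInt X0.1 (φ s • X0).1 = 16 := by rw [s2]; decide +kernel
      have c : dotInt X0.1 (φ t • X0).1 = 8 := by rw [t2, ← g2, dot_smul]; decide +kernel
      simp only [Fin.forall_fin_succ, Matrix.cons_val_zero, Matrix.cons_val_succ, a, b, c]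
      decide)
    (by
      have := card_B1
      have := card_B2 g1 g2
      intro i
      fin_cases i
      · exact (Set.ncard_pos (Set.toFinite _)).2 (nonempty_orbit _)
      · exact le s 891 (by rw [s2]; omega)
      · exact le t 1408 (by rw [t2]; omega))
  exact ⟨_, r1, by omega, _, _, r2 1, r2 2⟩

end CL.Co2U
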